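import Cfsg.Agent.H128.EP.PslPlug
import Cfsg.Agent.H173.EP.RowC2
import Cfsg.Agent.H855.EP3.C3

/-!
# S3499-III: `PslNonRes`
-/

set_option autoImplicit false

namespace Cfsg.Agent.H128.EP

open Subgroup Cfsg.Agent.H284 Cfsg.Agent.H419.EP
open scoped MatrixGroups

theorem row_c3 : Row C3 := by
  rintro Q _ _ hs A Γ h F _ _ n m hn h32 h34 h42 ⟨r, K, hr, hK, hle⟩
  exact H855.EP3.sl_c3 hs h m hn h32 hr hK hle

/-- **`PslNonRes`** -/
theorem pslNonRes : PslNonRes :=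
  pslNonRes_of' Cfsg.Agent.H173.EP.row_c2 row_c3

end Cfsg.Agent.H128.EP
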